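import Mathlib
import Cfsg.Agent.H914.Gs.SpRow
import Cfsg.Agent.H110.Gs.SpChain

/-!
# S4327: exotic automorphisms of `Sp_4(2^a)` (helper914)

`x ∉ range Psi`; `u` a transvection, `x u` is conjugate to a short root element `S b`; `z = u (x u)⁻¹` is a linear
element with `f v (z v) ≠ 0` for some `v`, so five conjugates of `z` generate everything; `z` is in the group generated
by two conjugates of `x`.
-/

set_option autoImplicit false
set_option maxHeartbeats 400000

namespace Cfsg.Agent.H914.Gs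

open Cfsg Cfsg.Agent.H915.Gs
open Cfsg.Agent.ClassicalGeometry.SympBasic Cfsg.Agent.ClassicalGeometry.SympSiegel
  Cfsg.Agent.ClassicalGeometry.SympAutSemi

section

variable {Γ : Type*} [Group Γ]

/-- composition: `z` in the group generated by `k` conjugates of `a`, `s` conjugates of `z` -/
theorem Reach.comp {a : MulAut Γ} {k s : ℕ} {z : Γ} {J : Subgroup Γ} (h : Reach a k (Subgroup.zpowers z))
    (h' : Reach (MulAut.conj z) s J) : Reach a (s * k) J := by
  obtain ⟨p, hp⟩ := h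
  obtain ⟨q, hq⟩ := h'
  refine ⟨fun i => q (finProdFinEquiv.symm i).1 * p (finProdFinEquiv.symm i).2, hq.trans ?_⟩
  unfold Gn
  rw [Subgroup.closure_le]
  rintro _ ⟨j, rfl⟩
  have hz : (MulAut.conj z : MulAut Γ) ∈ Gn a p := hp ⟨z, Subgroup.mem_zpowers z, rfl⟩
  have key : ∀ y ∈ Gn a p, MulAut.conj (q j) * y * (MulAut.conj (q j))⁻¹ ∈
      Subgroup.closure (Set.range fun i : Fin (s * k) =>
        MulAut.conj (q (finProdFinEquiv.symm i).1 * p (finProdFinEquiv.symm i).2) * a *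
          (MulAut.conj (q (finProdFinEquiv.symm i).1 * p (finProdFinEquiv.symm i).2))⁻¹) := by
    intro y hy
    have h1 : MulAut.conj (q j) * y * (MulAut.conj (q j))⁻¹ ∈
        (Gn a p).map (MulAut.conj (MulAut.conj (q j))).toMonoidHom := ⟨y, hy, rfl⟩
    rw [← Gn_mul] at h1
    refine (Subgroup.closure_mono ?_) h1
    rintro _ ⟨i, rfl⟩
    refine ⟨finProdFinEquiv (j, i), ?_⟩
    simp only [Equiv.symm_apply_apply]
  exact key _ hz

end

variable {F : Type*} [Field F] {m : ℕ}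

local notation "V" => (Fin m ⊕ Fin m → F)
local notation "G" => Matrix.symplecticGroup (Fin m) F
local notation "f" => sympForm m F

/-- a symplectic matrix as a semisimilitude -/
def ofG (z : G) : semiSim m F := ⟨rho m F z, RingEquiv.refl F, 1, one_ne_zero, isSemi_rho z⟩

theorem ofG_apply (z : G) (v : V) : (ofG z).1 v = z • v := rfl

theorem conjHom_ofG (z : G) : conjHom m F (ofG z) = MulAut.conj z := by
  ext1 A
  apply rho_injective
  rw [rho_conjHom, MulAut.conj_apply, map_mul, map_mul, map_inv]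
  rfl

/-- two non-zero functionals -/
theorem exists_both {u w : V} (hu : u ≠ 0) (hw : w ≠ 0) : ∃ v : V, f v u ≠ 0 ∧ f v w ≠ 0 := by
  by_contra hcon
  push Not at hcon
  obtain ⟨a, ha⟩ : ∃ a, f a u ≠ 0 := by
    by_contra hc
    push Not at hc
    exact hu (eq_zero_of_forall_sympForm_left hc)
  obtain ⟨b, hb⟩ : ∃ b, f b w ≠ 0 := by
    by_contra hc
    push Not at hc
    exact hw (eq_zero_of_forall_sympForm_left hc)
  have h1 := hcon a ha
  have h2 : f b u = 0 := by
    by_contra hc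
    exact hb (hcon b hc)
  have h3 := hcon (a + b) (by rw [sympForm_add_left, h2, add_zero]; exact ha)
  rw [sympForm_add_left, h1, zero_add] at h3
  exact hb h3

/-- `u` a transvection, `s` with `v ⊥ s v` for all `v`: `u s` is good -/
theorem good_mul {v₁ : V} (hv₁ : v₁ ≠ 0) {c : F} (hc : c ≠ 0) {s : G} (hs : ∀ v : V, f v (s • v) = 0) :
    ∃ v₀ : V, f v₀ ((transv v₁ c * s) • v₀) ≠ 0 := by
  obtain ⟨v, h1, h2⟩ := exists_both hv₁ (w := s⁻¹ • v₁) (smul_ne_zero' _ hv₁)
  refine ⟨v, ?_⟩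
  rw [mul_smul, transv_smul, sympForm_add_right, hs, zero_add, sympForm_smul_right, form_smul_left]
  exact mul_ne_zero (mul_ne_zero hc h2) h1

theorem inv_bad {s : G} (hs : ∀ v : V, f v (s • v) = 0) (v : V) : f v (s⁻¹ • v) = 0 := by
  have h := hs (s⁻¹ • v)
  rw [smul_inv_smul] at h
  exact form_eq_zero_comm.1 h

theorem conj_bad {s h : G} (hs : ∀ v : V, f v (s • v) = 0) (v : V) : f v ((h * s * h⁻¹) • v) = 0 := by
  rw [mul_smul, mul_smul, ← form_smul h⁻¹, inv_smul_smul]
  exact hs _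

/-- **EXO** -/
theorem exotic_of {F : Type*} [Field F] [Finite F]
    (good : ∀ {g : semiSim 2 F} {l : F}, l ≠ 0 → IsSemi g.1 (RingEquiv.refl F) l →
      ∀ {v₀ : Fin 2 ⊕ Fin 2 → F}, sympForm 2 F v₀ (g.1 v₀) ≠ 0 → (Nat.card F ≠ 5 ∨ IsSquare l) →
        Reach (conjHom 2 F g) 3 (T (W 2 F 1 : Set (Fin 2 ⊕ Fin 2 → F))))
    (h2 : (2 : F) = 0) (hF : 4 ≤ Nat.card F) (x : MulAut (PSp 2 F)) (hx : x ∉ (Psi 2 F).range) :
    Reach x 11 ⊤ := by
  have hchar : CharP F 2 := CharTwo.of_one_ne_zero_of_two_eq_zero one_ne_zero h2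
  have ht : ∃ t : F, t ≠ 0 ∧ t ≠ 1 := by
    classical
    have := Fintype.ofFinite F
    by_contra hcon
    push Not at hcon
    have h5 : (Finset.univ : Finset F) ⊆ {0, 1} := by
      intro a _
      rw [Finset.mem_insert, Finset.mem_singleton]
      by_cases h : a = 0
      · exact Or.inl h
      · exact Or.inr (hcon a h)
    have h6 := (Finset.card_le_card h5).trans Finset.card_le_two
    rw [Finset.card_univ, ← Nat.card_eq_fintype_card] at h6
    omega
  have hP : ¬ Cfsg.Agent.ClassicalGeometry.AutPSpCount.Pres x := by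
    intro hP
    obtain ⟨g, hg⟩ := Cfsg.Agent.ClassicalGeometry.SympAutExists.exists_semi (le_refl 2) x hP
    exact hx ⟨g, hg⟩
  have hv₁ : (Cfsg.Agent.ClassicalGeometry.Sp4GraphAut.e1 F) ≠ 0 :=
    Cfsg.Agent.ClassicalGeometry.Sp4GraphAut.e1_ne_zero
  set v₁ := Cfsg.Agent.ClassicalGeometry.Sp4GraphAut.e1 F with hv₁def
  obtain ⟨_, ⟨b, hb, rfl⟩, hconj⟩ :=
    (Cfsg.Agent.ClassicalGeometry.SympAutTwo.recog_two ht x).resolve_left hP v₁ hv₁ 1 one_ne_zero
  obtain ⟨c, hc⟩ := isConj_iff.1 hconj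
  obtain ⟨h, rfl⟩ := QuotientGroup.mk_surjective c
  set s := h * Cfsg.Agent.ClassicalGeometry.Sp4GraphAut.S b * h⁻¹ with hs
  have hxs : x (QuotientGroup.mk (transv v₁ (1 : F))) = QuotientGroup.mk s := by
    rw [← hc, hs]
    rfl
  have hSb : ∀ v : Fin 2 ⊕ Fin 2 → F,
      sympForm 2 F v (Cfsg.Agent.ClassicalGeometry.Sp4GraphAut.S b • v) = 0 := by
    intro v
    rw [smul_def, Cfsg.Agent.ClassicalGeometry.Sp4GraphAut.S_mulVec, sympForm_add_right, sympForm_add_right,
      sympForm_self, sympForm_smul_right, sympForm_smul_right, Cfsg.Agent.ClassicalGeometry.Sp4GraphAut.e1,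
      Cfsg.Agent.ClassicalGeometry.Sp4GraphAut.e2, sympForm_single_inl_right, sympForm_single_inl_right]
    linear_combination (b * v (Sum.inr 1) * v (Sum.inr 0)) * h2
  have hsb : ∀ v : Fin 2 ⊕ Fin 2 → F, sympForm 2 F v (s • v) = 0 := fun v => conj_bad hSb v
  obtain ⟨v₀, hv₀⟩ := good_mul (m := 2) hv₁ (one_ne_zero : (1 : F) ≠ 0) (inv_bad hsb)
  set z : Matrix.symplecticGroup (Fin 2) F := transv v₁ 1 * s⁻¹ with hz
  -- two conjugates of `x`
  have h1 : Reach x 2 (Subgroup.zpowers (QuotientGroup.mk z : PSp 2 F)) := by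
    refine (Reach₁.comm x (s := 1) (fun _ => (QuotientGroup.mk (transv v₁ (1 : F)) : PSp 2 F))).reach.sub ?_
    rw [Subgroup.zpowers_le]
    refine Subgroup.subset_closure ⟨0, ?_⟩
    dsimp only
    rw [hxs, hz]
    rfl
  -- five conjugates of `z`
  have hl : (1 : F) ≠ 0 := one_ne_zero
  have hg : IsSemi (ofG z).1 (RingEquiv.refl F) 1 := isSemi_rho z
  have h3 := good hl hg (v₀ := v₀) hv₀ (Or.inr ⟨1, by simp⟩)
  have h5 := Cfsg.Agent.H110.Gs.chain (by omega) hl hg ⟨v₀, linInd_of_form hv₀⟩ le_rfl (by norm_num) h3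
  rw [show 1 + 1 = 2 from rfl, W_top, T_univ, conjHom_ofG] at h5
  have h6 : Reach (MulAut.conj (QuotientGroup.mk z : PSp 2 F)) 5 ⊤ :=
    h5.transfer_top (π := (QuotientGroup.mk' (Subgroup.center _) : Matrix.symplecticGroup (Fin 2) F →* PSp 2 F))
      (QuotientGroup.mk'_surjective _) (fun A => rfl)
  exact (Reach.comp h1 h6).mono (by norm_num) (by norm_num)

end Cfsg.Agent.H914.Gs
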